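import Mathlib
import Cfsg.Agent.Lib.Helper37.U27.Defs

set_option autoImplicit false

/-! U27 project (S5999), package [CAUCHY]: a non-scalar element of prime order `r ≥ 5` in
`SU_3(q)`. -/

open scoped MatrixGroups Matrix

namespace Cfsg.Agent.Lib.Helper26.U27

open Cfsg.Agent.Lib.Helper37.U27

universe u

theorem pkgCauchy : PkgCauchy.{u} := by
  intro F _ _ q r hr h5 hdvd
  classical
  have : Fact r.Prime := ⟨hr⟩
  obtain ⟨x, hx⟩ := exists_prime_orderOf_dvd_card' r hdvd
  have hxr : (x : GL (Fin 3) F) ^ r = 1 := by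
    have := pow_orderOf_eq_one x
    rw [hx] at this
    exact_mod_cast congrArg Subtype.val this
  have hx1 : (x : GL (Fin 3) F) ≠ 1 := by
    intro h1
    have : x = 1 := Subtype.ext h1
    rw [this, orderOf_one] at hx
    omega
  refine ⟨x, x.2, hxr, ?_⟩
  intro z hz
  apply hx1
  have hdet : ((x : GL (Fin 3) F) : Matrix (Fin 3) (Fin 3) F).det = 1 := by
    have hmem : (x : GL (Fin 3) F) ∈ Cfsg.Geo.specialLinear (Fin 3) F := x.2.2
    have h' : Matrix.GeneralLinearGroup.det (x : GL (Fin 3) F) = 1 := hmem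
    have := congrArg Units.val h'
    simpa using this
  have hz3 : z ^ 3 = 1 := by
    rw [hz] at hdet
    simpa [Matrix.det_smul] using hdet
  have hzr : z ^ r = 1 := by
    have h1 := congrArg (fun g : GL (Fin 3) F => (g : Matrix (Fin 3) (Fin 3) F) 0 0) hxr
    simp only [Units.val_pow_eq_pow_val, hz, Units.val_one, Matrix.one_apply_eq] at h1
    rw [smul_pow, one_pow] at h1
    simpa using h1
  have hz1 : z = 1 := by
    have hg : Nat.gcd 3 r = 1 := by
      rw [Nat.coprime_comm.mp]
      exact (Nat.Prime.coprime_iff_not_dvd hr).mpr (fun h => by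
        have := Nat.le_of_dvd (by norm_num) h
        omega)
    have := (pow_gcd_eq_one (a := z) (m := 3) (n := r)).mpr ⟨hz3, hzr⟩
    rwa [hg, pow_one] at this
  apply Units.ext
  rw [hz, hz1, one_smul]
  rfl

end Cfsg.Agent.Lib.Helper26.U27
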