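import Mathlib
import Cfsg.Agent.Lib.Helper37.U27.Defs

set_option autoImplicit false

/-! U27 project (S5999), package [IDX3]: a subgroup of order 27 of `N ⊓ G` and `81 ∤ |G|`
give `3 ∤ |G : N ⊓ G|`. -/

namespace Cfsg.Agent.Lib.Helper26.U27

open Cfsg.Agent.Lib.Helper37.U27

universe u

theorem pkgIdx3 : PkgIdx3.{u} := by
  intro H _ G N R _ hRN hRG hR h81 h3
  apply h81
  have h1 : Nat.card (N.subgroupOf G) * N.relIndex G = Nat.card G :=
    Subgroup.card_mul_index (N.subgroupOf G)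
  have h2 : Nat.card (R.subgroupOf G) ∣ Nat.card (N.subgroupOf G) :=
    Subgroup.card_dvd_of_le (Subgroup.subgroupOf_mono G hRN)
  rw [Nat.card_congr (Subgroup.subgroupOfEquivOfLe hRG).toEquiv, hR] at h2
  rw [← h1]
  exact Nat.mul_dvd_mul h2 h3

end Cfsg.Agent.Lib.Helper26.U27
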