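import Mathlib
import Cfsg.Agent.Lib.Helper37.U27.Defs

set_option autoImplicit false

/-! U27 project (S5999), package [NORMR0]: membership in the normalizer of `R0 w` can be
checked on the two generators. -/

open scoped MatrixGroups Matrix

namespace Cfsg.Agent.Lib.Helper26.U27

open Cfsg.Agent.Lib.Helper37.U27

universe u

theorem pkgNormR0 : PkgNormR0.{u} := by
  intro F _ w n hgen
  have h1 : ∀ h ∈ R0 w, n * h * n⁻¹ ∈ R0 w := by
    intro h hh
    have hle : Subgroup.closure {y : GL (Fin 3) F | (y : Matrix (Fin 3) (Fin 3) F) = Xm F ∨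
        (y : Matrix (Fin 3) (Fin 3) F) = Zm w} ≤ (R0 w).comap (MulAut.conj n).toMonoidHom := by
      rw [Subgroup.closure_le]
      intro y hy
      exact (hgen y hy).1
    exact hle hh
  have h2 : ∀ h ∈ R0 w, n⁻¹ * h * n ∈ R0 w := by
    intro h hh
    have hle : Subgroup.closure {y : GL (Fin 3) F | (y : Matrix (Fin 3) (Fin 3) F) = Xm F ∨
        (y : Matrix (Fin 3) (Fin 3) F) = Zm w} ≤ (R0 w).comap (MulAut.conj n⁻¹).toMonoidHom := by
      rw [Subgroup.closure_le]
      intro y hy
      have := (hgen y hy).2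
      show n⁻¹ * y * n⁻¹⁻¹ ∈ R0 w
      rwa [inv_inv]
    have := hle hh
    have h' : n⁻¹ * h * n⁻¹⁻¹ ∈ R0 w := this
    rwa [inv_inv] at h'
  show n ∈ Subgroup.normalizer ((R0 w : Subgroup (GL (Fin 3) F)) : Set (GL (Fin 3) F))
  rw [Subgroup.mem_normalizer_iff]
  intro h
  constructor
  · exact h1 h
  · intro hh
    have := h2 _ hh
    have e : n⁻¹ * (n * h * n⁻¹) * n = h := by group
    rwa [e] at this

end Cfsg.Agent.Lib.Helper26.U27
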