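import Mathlib
import Cfsg.Agent.Lib.Helper37.U27.Defs

set_option autoImplicit false

/-! U27 project (S5999), package [W0]: a primitive cube root of unity in a field with `q ^ 2`
elements, `3 ∣ q + 1`. -/

namespace Cfsg.Agent.Lib.Helper26.U27

open Cfsg.Agent.Lib.Helper37.U27

universe u

theorem pkgW0 : PkgW0.{u} := by
  intro F _ _ q hcard h3
  classical
  have hq2 : q ^ 2 % 3 = 1 := by
    have hq : q % 3 = 2 := by omega
    rw [Nat.pow_mod, hq]
  have hdvd : 3 ∣ Nat.card Fˣ := by
    rw [Nat.card_units, Nat.card_eq_fintype_card, hcard]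
    generalize q ^ 2 = m at hq2
    omega
  have : Fact (Nat.Prime 3) := ⟨Nat.prime_three⟩
  obtain ⟨x, hx⟩ := exists_prime_orderOf_dvd_card' 3 hdvd
  have hx3 : (x : F) ^ 3 = 1 := by
    have := pow_orderOf_eq_one x
    rw [hx] at this
    rw [← Units.val_pow_eq_pow_val, this, Units.val_one]
  have hx1 : (x : F) ≠ 1 := by
    intro h1
    have : x = 1 := Units.ext h1
    rw [this, orderOf_one] at hx
    omega
  refine ⟨(x : F), ?_⟩
  have hfac : ((x : F) - 1) * ((x : F) ^ 2 + (x : F) + 1) = 0 := by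
    have : ((x : F) - 1) * ((x : F) ^ 2 + (x : F) + 1) = (x : F) ^ 3 - 1 := by ring
    rw [this, hx3, sub_self]
  rcases mul_eq_zero.mp hfac with h | h
  · exact absurd (sub_eq_zero.mp h) hx1
  · exact h

end Cfsg.Agent.Lib.Helper26.U27
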